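import Cfsg.Agent.H274.EPO.Arith
import Cfsg.Agent.S0816
import Cfsg.Agent.S0292

/-!
# S3499, own characteristic, odd dimensional orthogonal socles: numbers (helper451)

`Bo N l j` : the dimension `N` is too large for `|F| ^ (N (N - 1) / 2) ≤ 8 |Aut PΩ_{2 l + 1}(K)| ^ 4`, `|K| = |F| ^ j` odd.
-/

set_option autoImplicit false
set_option linter.unusedSectionVars false

namespace Cfsg.Agent.H451.EP

open Cfsg Cfsg.Agent.H274.EPO

/-- the order criterion -/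
def Bo (N l j : ℕ) : Prop := 2 * (j * (8 * l ^ 2 + 4 * l + 2)) + 2 < N * (N - 1)

theorem Bo.of_bnd {N l j : ℕ} (h : Bnd N l (2 * j)) : Bo N l j := by
  unfold Bnd at h
  unfold Bo
  have h1 : 2 * (j * (8 * l ^ 2 + 4 * l + 2)) ≤ 4 * (2 * j) * (2 * l ^ 2 + 3 * l + 2) := by
    have : 4 * (2 * j) * (2 * l ^ 2 + 3 * l + 2) = 2 * (j * (8 * l ^ 2 + 4 * l + 2)) + j * (16 * l + 12) := by ring
    omega
  omega

theorem bo_of {N L l j D : ℕ} (h : L ≤ N)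
    (hT : L * L = 2 * (j * (8 * l ^ 2 + 4 * l + 2)) + 2 + L + 1 + D) : Bo N l j := by
  unfold Bo
  have h1 : L * (L - 1) ≤ N * (N - 1) := Nat.mul_le_mul h (by omega)
  have h2 : L * (L - 1) + L = L * L := by
    rcases Nat.eq_zero_or_pos L with rfl | hL
    · rfl
    · obtain ⟨M, rfl⟩ : ∃ M, L = M + 1 := ⟨L - 1, by omega⟩
      simp only [Nat.add_sub_cancel]
      ring
  omega

/-- the last node -/
theorem bo_last {l j N d ε : ℕ} (hl : 3 ≤ l) (hj : 1 ≤ j) (hN : 13 ≤ N) (hd : ∃ m, 2 ≤ m ∧ d = m ^ j)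
    (hε : d ≤ ε + 2) (h : 2 ^ l + l * 2 ^ (l - 1) * ε ≤ N) :
    (j = 1 ∧ d ≤ 2 ∧ (l = 3 ∧ N = 13 ∨ l = 4 ∧ (N = 16 ∨ N = 17))) ∨ Bo N l j := by
  have h0 := two_le_of hd
  rcases Nat.lt_or_ge 1 j with hj2 | hj1
  · right
    obtain ⟨x, rfl⟩ : ∃ x, j = x + 2 := ⟨j - 2, by omega⟩
    obtain ⟨t, rfl⟩ : ∃ t, l = t + 3 := ⟨l - 3, by omega⟩
    have h1 := H274.EPO.two_mul_le_pow (j := x + 2) (by omega)
    have h2 : 2 * (x + 1) ≤ ε := by omega
    have h3 : t + 4 ≤ 2 ^ (t + 3 - 1) := by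
      have h4 := Nat.lt_two_pow_self (n := t)
      have h5 : 2 ^ (t + 3 - 1) = 4 * 2 ^ t := by
        have : t + 3 - 1 = 2 + t := by omega
        rw [this, pow_add]
        norm_num
      omega
    have h4 : 2 ^ (t + 3) = 2 * 2 ^ (t + 3 - 1) := by
      rw [← pow_succ']
      congr 1
    rw [h4] at h
    have h5 : (t + 3) * (t + 4) * (2 * (x + 1)) ≤ (t + 3) * 2 ^ (t + 3 - 1) * ε :=
      Nat.mul_le_mul (Nat.mul_le_mul_left _ h3) h2
    exact bo_of (L := 2 * (t + 4) + (t + 3) * (t + 4) * (2 * (x + 1)))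
      (D := 645 + 1340 * x + 576 * x ^ 2 + 800 * t + 1546 * t * x + 672 * t * x ^ 2 + 350 * t ^ 2 + 654 * t ^ 2 * x +
        292 * t ^ 2 * x ^ 2 + 64 * t ^ 3 + 120 * t ^ 3 * x + 56 * t ^ 3 * x ^ 2 + 4 * t ^ 4 + 8 * t ^ 4 * x +
        4 * t ^ 4 * x ^ 2) (by omega) (by ring)
  · obtain rfl : j = 1 := by omega
    rcases (show l = 3 ∨ l = 4 ∨ 5 ≤ l by omega) with rfl | rfl | hl5
    · rcases (show N = 13 ∨ 14 ≤ N by omega) with rfl | h14
      · left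
        norm_num at h
        exact ⟨rfl, by omega, Or.inl ⟨rfl, rfl⟩⟩
      · exact Or.inr (bo_of (D := 7) h14 (by norm_num))
    · norm_num at h
      rcases (show (N = 16 ∨ N = 17) ∨ 18 ≤ N by omega) with h16 | h18
      · left
        exact ⟨rfl, by omega, Or.inr ⟨rfl, h16⟩⟩
      · exact Or.inr (bo_of (D := 11) h18 (by norm_num))
    · have h1 := six_le_pow hl5
      obtain ⟨t, rfl⟩ : ∃ t, l = t + 5 := ⟨l - 5, by omega⟩
      exact Or.inr (bo_of (L := 6 * (t + 5) + 2) (D := 545 + 210 * t + 20 * t ^ 2) (by omega) (by ring))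

/-- the middle node, `l = 3` -/
theorem bo_three {j N d : ℕ} (hj : 1 ≤ j) (hN : 13 ≤ N) (hd : ∃ m, 2 ≤ m ∧ d = m ^ j) (h : 12 * d ≤ 2 * N) :
    (j = 1 ∧ d ≤ 2 ∧ N = 13) ∨ Bo N 3 j := by
  have h0 := two_le_of hd
  rcases Nat.lt_or_ge 1 j with hj2 | hj1
  · right
    obtain ⟨x, rfl⟩ : ∃ x, j = x + 2 := ⟨j - 2, by omega⟩
    have h1 := H274.EPO.two_mul_le_pow (j := x + 2) (by omega)
    exact bo_of (L := 12 * (x + 2)) (D := 205 + 392 * x + 144 * x ^ 2) (by omega) (by ring)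
  · obtain rfl : j = 1 := by omega
    rcases (show N = 13 ∨ 14 ≤ N by omega) with rfl | h14
    · left
      exact ⟨rfl, by omega, rfl⟩
    · exact Or.inr (bo_of (D := 7) h14 (by norm_num))

/-! ### the automorphism group -/

theorem sq_le_three (f : ℕ) : f ^ 2 ≤ 3 ^ f := by
  induction f with
  | zero => norm_num
  | succ f ih =>
    rcases (show f = 0 ∨ f = 1 ∨ 2 ≤ f by omega) with rfl | rfl | h2
    · norm_num
    · norm_num
    · calc (f + 1) ^ 2 ≤ f ^ 2 * 3 := by nlinarith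
        _ ≤ 3 ^ f * 3 := Nat.mul_le_mul_right _ ih
        _ = 3 ^ (f + 1) := (pow_succ 3 f).symm

/-- **The order of `Aut PΩ_{2 l + 1}(K)`.** -/
theorem aut_odd {K : Type} [Field K] [Fintype K] {l : ℕ} (hl : 3 ≤ l) (ho : Odd (Fintype.card K)) :
    ∃ f : ℕ, f ^ 2 ≤ Fintype.card K ∧
      Nat.card (MulAut (Cfsg.POmega K (Cfsg.quadFormOdd l K))) ≤ f * Fintype.card K ^ (2 * l ^ 2 + l) := by
  obtain ⟨r, hr⟩ := CharP.exists K
  have hrp : r.Prime := CharP.char_is_prime K r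
  have := Fact.mk hrp
  obtain ⟨f, -, hf⟩ := FiniteField.card K r
  have hrodd : Odd r := by
    rw [hf] at ho
    exact (Nat.odd_pow_iff f.ne_zero).1 ho
  have hr3 : 3 ≤ r := by
    have h2 := hrp.two_le
    rcases (show r = 2 ∨ 3 ≤ r by omega) with h | h
    · rw [h] at hrodd
      exact absurd hrodd (by decide)
    · exact h
  have h1 := Cfsg.Agent.S0816.result (F := K) r f f.pos hf hrodd l hl
  have h2 := Cfsg.Agent.S0292.result (F := K) rfl ho l hl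
  refine ⟨f, ?_, ?_⟩
  · rw [hf]
    exact (sq_le_three _).trans (Nat.pow_le_pow_left hr3 _)
  set s := Fintype.card K with hs
  rw [h1]
  calc 2 * f * Nat.card (Cfsg.POmega K (Cfsg.quadFormOdd l K))
      = f * (2 * Nat.card (Cfsg.POmega K (Cfsg.quadFormOdd l K))) := by ring
    _ = f * (s ^ (l ^ 2) * ∏ i ∈ Finset.range l, (s ^ (2 * (i + 1)) - 1)) := by rw [h2]
    _ ≤ f * (s ^ (l ^ 2) * s ^ (l * (l + 1))) := Nat.mul_le_mul_left _ (Nat.mul_le_mul_left _ (H274.EPO.prod_le s l))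
    _ = f * s ^ (2 * l ^ 2 + l) := by
        rw [← pow_add]
        congr 2
        ring

/-- the final count: `|F| = q`, `|K| = k`, `k = q ^ j` -/
theorem count_odd {q k j l N n A M f : ℕ} (hq : 3 ≤ q) (hjk : q ^ j = k) (ho : q ^ (n * (n - 1) / 2) ≤ 8 * N)
    (hUB : N ≤ A ^ 4) (hA : A ≤ M) (hf : f ^ 2 ≤ k) (hM : M ≤ f * k ^ (2 * l ^ 2 + l)) (hb : Bo n l j) : False := by
  have h1 : q ^ (n * (n - 1) / 2) ≤ 8 * (f * k ^ (2 * l ^ 2 + l)) ^ 4 :=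
    ho.trans (Nat.mul_le_mul_left _ (hUB.trans (Nat.pow_le_pow_left (hA.trans hM) 4)))
  have h2 : (f * k ^ (2 * l ^ 2 + l)) ^ 4 ≤ k ^ (8 * l ^ 2 + 4 * l + 2) := by
    calc (f * k ^ (2 * l ^ 2 + l)) ^ 4 = (f ^ 2) ^ 2 * k ^ ((2 * l ^ 2 + l) * 4) := by
          rw [mul_pow, ← pow_mul, ← pow_mul]
      _ ≤ k ^ 2 * k ^ ((2 * l ^ 2 + l) * 4) := Nat.mul_le_mul_right _ (Nat.pow_le_pow_left hf 2)
      _ = k ^ (8 * l ^ 2 + 4 * l + 2) := by
          rw [← pow_add]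
          congr 1
          ring
  have h3 : q ^ (n * (n - 1) / 2) < q ^ (j * (8 * l ^ 2 + 4 * l + 2) + 2) := by
    calc q ^ (n * (n - 1) / 2) ≤ 8 * k ^ (8 * l ^ 2 + 4 * l + 2) := h1.trans (Nat.mul_le_mul_left _ h2)
      _ = 8 * q ^ (j * (8 * l ^ 2 + 4 * l + 2)) := by rw [← hjk, ← pow_mul]
      _ < q ^ 2 * q ^ (j * (8 * l ^ 2 + 4 * l + 2)) := by
          refine Nat.mul_lt_mul_of_pos_right ?_ (pow_pos (by omega) _)
          calc 8 < 3 ^ 2 := by norm_num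
            _ ≤ q ^ 2 := Nat.pow_le_pow_left hq 2
      _ = q ^ (j * (8 * l ^ 2 + 4 * l + 2) + 2) := by rw [← pow_add, add_comm]
  have h4 := (Nat.pow_lt_pow_iff_right (show 1 < q by omega)).1 h3
  have h5 : 2 * (n * (n - 1) / 2) = n * (n - 1) := Nat.mul_div_cancel' (Nat.even_mul_pred_self n).two_dvd
  unfold Bo at hb
  omega

end Cfsg.Agent.H451.EP
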