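import Cfsg.Agent.H451.EP.Sl2
import Cfsg.Agent.H948.Ppd.Cover
import Cfsg.Agent.H924.D5F

/-!
# Type `B3`: no simple modules of dimension 13 of the type `J^c = {1}` with small edges (helper451)

* `not01` : the nodes `0` and `1` are not both outside `J` if `dim V ≤ 13`;
* `neg_conj` : `σ_j (w ^ 2) = -1` on the vertex `g` if `g α_i = α_j`, `i ∉ J`, `dim Le {i} ≤ 2`;
* `root_move` : a root element of `-α_2` at the vertex `s_1`, modulo the common kernel `Kv`;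
* **`node1_false`**.
-/

set_option autoImplicit false
set_option linter.unusedSectionVars false
set_option linter.style.haveILetI false

namespace Cfsg.Agent.H451.EP.B3

open CoxeterSystem Cfsg.Agent.ChevalleyStructure.CoxeterGeom Cfsg.Agent.Tits.Roots Cfsg.Agent.Tits.Core
  Cfsg.Agent.Tits.Exchange Cfsg.Agent.Nodes.Reps Cfsg.Agent.Nodes.BNOf Cfsg.Agent.Nodes.StabComb
  Cfsg.Agent.Nodes.Bruhat Cfsg.Agent.Nodes.OppDec Cfsg.Agent.Nodes.LeviDec Cfsg.Agent.KFacts.RgdOpp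
  Cfsg.Agent.Omega.CR Cfsg.Agent.Omega.FOne.Lift.Sd Cfsg.Agent.H905.Md Cfsg.Agent.H905
open Cfsg.Agent.H924.D5 Cfsg.Agent.H924.D5.B Cfsg.Agent.H948.Ppd Cfsg.Agent.H911.SLTwo
open scoped commutatorElement MatrixGroups

/-! ### edges -/

section edge

variable {I W Y : Type*} [Fintype I] [DecidableEq I] [Group W] [Group Y] {M : CoxeterMatrix I}
  {cs : CoxeterSystem M W} {A : I → I → ℤ} {h : IsCartan M A} {p : ℕ} {T : Subgroup Y} {n : I → Y}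
  {X : (I → ℤ) → Subgroup Y} {k V : Type*} [Field k] [AddCommGroup V] [Module k V]
variable (R : RGD cs h p T n X) [Finite Y] [Finite W] [Fact p.Prime] [CharP k p]
  {ρ : Y →* Module.End k V} [FiniteDimensional k V]
include R

/-- `-1` at a vertex -/
theorem neg_conj {i j : I} (hi : i ∉ Jx cs h X ρ) (hL : Module.finrank k (Le cs h T X ρ {i}) ≤ 2) {w : W} {g : Y}
    (hg : Rp cs R.nsys w g) (hw : rep cs h w (sr i) = sr j) {E : Type*} [Field E] [CharP E p]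
    {σ : SL(2, E) →* Y} (N : Nd T X j σ) : ∀ v ∈ (D cs h X ρ).map (ρ g), ρ (σ (ww * ww)) v = -v := by
  have hiv : Ivt ρ (LJ cs h T X {i}) (Le cs h T X ρ {i}) := Ivt_Sp _ _
  obtain ⟨x, hx, c, hc, hne⟩ : ∃ x ∈ X (-sr i), ∃ v ∈ D cs h X ρ, ρ x v ≠ v := by
    by_contra hcon
    push Not at hcon
    exact hi fun x hx v hv => hcon x hx v hv
  have hw' : rep cs h w⁻¹ (sr j) = sr i := by rw [← hw, rep_inv_apply]
  have hw'' : rep cs h w⁻¹ (-sr j) = -sr i := by rw [map_neg, hw']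
  have hcj : ∀ {y : Y} (u : V), ρ y (ρ g u) = ρ g (ρ (g⁻¹ * y * g) u) := by
    intro y u
    rw [← rho_mul, ← rho_mul]
    congr 2
    group
  have hup : ∀ t : E, g⁻¹ * σ (U t) * g ∈ X (sr i) := by
    intro t
    have h1 := R.conj_mem' hg (isRoot_sr cs h j) ((N.up _).2 ⟨t, rfl⟩)
    rwa [hw'] at h1
  have hlo : ∀ t : E, g⁻¹ * σ (Lo t) * g ∈ X (-sr i) := by
    intro t
    have h1 := R.conj_mem' hg (isRoot_sr cs h j).neg ((N.lo _).2 ⟨t, rfl⟩)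
    rwa [hw''] at h1
  obtain ⟨t₀, ht₀⟩ : ∃ t₀, σ (Lo t₀) = g * x * g⁻¹ := by
    have h1 := R.conj_mem hg (isRoot_sr cs h i).neg hx
    rw [map_neg, hw] at h1
    exact (N.lo _).1 h1
  intro v hv
  have hle : (D cs h X ρ).map (ρ g) ≤ (Le cs h T X ρ {i}).map (ρ g) := Submodule.map_mono (D_le_Le R {i})
  refine sl2_neg' (p := p) ρ σ ((Le cs h T X ρ {i}).map (ρ g)) ((finrank_map g _).trans_le hL) ?_ ?_
    (c := ρ g c) ⟨c, D_le_Le R {i} hc, rfl⟩ ?_ (t₀ := t₀) ?_ v (hle hv)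
  · rintro t _ ⟨u, hu, rfl⟩
    rw [hcj]
    exact ⟨_, hiv _ (X_le_LJ (sr_mem_Roots i) (hup t)) u hu, rfl⟩
  · rintro t _ ⟨u, hu, rfl⟩
    rw [hcj]
    exact ⟨_, hiv _ (X_le_LJ (RootsJ.neg (sr_mem_Roots i)) (hlo t)) u hu, rfl⟩
  · intro t
    rw [hcj, X_fix R ρ hc i (hup t)]
  · rw [hcj, ht₀]
    have e : g⁻¹ * (g * x * g⁻¹) * g = x := by group
    rw [e]
    intro h0
    apply hne
    have h1 := congrArg (ρ g⁻¹) h0
    rwa [rho_inv_rho, rho_inv_rho] at h1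

end edge

/-! ### words -/

section words

/-- words -/
def p01' : List (List (Fin 3)) := [2, 0, 1, 0] :: p01

/-- the face -/
def fl : List (List (Fin 3)) := [[], [1], [2, 1], [1, 2, 1]]

variable {A : Fin 3 → Fin 3 → ℤ} (h : IsCartan (CoxeterMatrix.B 3) A)
include h

theorem np01' : (p01'.map fun ω => [(0 : Fin 3), 1].map fun i => lbw A i ω).Nodup := by
  rcases cartan_B3 h with rfl | rfl <;> decide +kernel

theorem labX : ∀ ω ∈ l1, pr (lbw A 1 ω) (-Pi.single 2 1) ≤ 0 ∨ lbw A 1 ω = lbw A 1 [2, 1] ∨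
    ∀ ω' ∈ fl, lbw A 1 ω ≠ lbw A 1 ω' := by
  rcases cartan_B3 h with rfl | rfl <;> decide +kernel

theorem clf : ∀ j, j ≠ 0 → ∀ ω ∈ fl, ∃ ω' ∈ fl, DC.fire A (lbw A 1 ω) j = lbw A 1 ω' := by
  rcases cartan_B3 h with rfl | rfl <;> decide +kernel

theorem lab12 : lbw A 1 [1] ≠ lbw A 1 [2, 1] ∧ 0 ≤ pr (lbw A 1 [1]) (Pi.single 2 1) ∧
    0 ≤ pr (lbw A 1 [2, 1]) (-Pi.single 2 1) ∧ lbw A 1 [2, 2, 1] = lbw A 1 [1] ∧
    lbw A 1 [1, 0] = lbw A 1 [1] ∧ lbw A 1 [2, 1, 0] = lbw A 1 [2, 1] ∧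
    rww A [1, 0] (Pi.single 1 1) = Pi.single 0 1 ∧ rww A [2, 1, 0] (Pi.single 1 1) = Pi.single 0 1 := by
  rcases cartan_B3 h with rfl | rfl <;> decide +kernel

theorem no02 : ∀ q ∈ rl, rv A q 1 = 0 → rv A q 0 = 0 ∨ rv A q 2 = 0 := by
  rcases cartan_B3 h with rfl | rfl <;> decide +kernel

theorem face_orbit {W : Type*} [Group W] {cs : CoxeterSystem (CoxeterMatrix.B 3) W} {u : W}
    (hu : u ∈ WJ cs {j : Fin 3 | j ≠ 0}) : ∃ ω ∈ fl, lb cs h 1 u = lbw A 1 ω := by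
  unfold WJ at hu
  induction hu using Subgroup.closure_induction_left with
  | one => exact ⟨[], by decide, by rw [lb_one]; rfl⟩
  | mul_left x hx y hy ih =>
    obtain ⟨j, hj, rfl⟩ := hx
    obtain ⟨ω, hω, e⟩ := ih
    rw [lb_simple_mul, e]
    exact clf h j hj ω hω
  | inv_mul_cancel x hx y hy ih =>
    obtain ⟨j, hj, rfl⟩ := hx
    obtain ⟨ω, hω, e⟩ := ih
    rw [cs.inv_simple, lb_simple_mul, e]
    exact clf h j hj ω hω

end words

/-! ### modules -/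

variable {W Y : Type*} [Group W] [Group Y] {cs : CoxeterSystem (CoxeterMatrix.B 3) W} {A : Fin 3 → Fin 3 → ℤ}
  {h : IsCartan (CoxeterMatrix.B 3) A} {p : ℕ} {T : Subgroup Y} {n : Fin 3 → Y}
  {X : (Fin 3 → ℤ) → Subgroup Y} {k V : Type*} [Field k] [AddCommGroup V] [Module k V]

variable (R : RGD cs h p T n X) [Finite Y] [Finite W] [Fact p.Prime] [CharP k p]
  {ρ : Y →* Module.End k V} [FiniteDimensional k V]

omit [Fact p.Prime] [Finite W] [Finite Y] in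
include R in
/-- `X_{±0}` and `X_{-2}` commute -/
theorem comm02 {a x : Y} (ha : a ∈ X (sr 0) ∨ a ∈ X (-sr 0)) (hx : x ∈ X (-sr 2)) : ⁅a, x⁆ = 1 := by
  have h0 := isRoot_sr cs h (0 : Fin 3)
  have h2 := isRoot_sr cs h (2 : Fin 3)
  have s00 : (sr 0 : Fin 3 → ℤ) 0 = 1 := by decide
  have s01 : (sr 0 : Fin 3 → ℤ) 1 = 0 := by decide
  have s02 : (sr 0 : Fin 3 → ℤ) 2 = 0 := by decide
  have s20 : (sr 2 : Fin 3 → ℤ) 0 = 0 := by decide
  have s21 : (sr 2 : Fin 3 → ℤ) 1 = 0 := by decide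
  have s22 : (sr 2 : Fin 3 → ℤ) 2 = 1 := by decide
  rcases ha with ha | ha
  · have h1 := R.comm (sr 0) (-sr 2) h0 h2.neg (by decide) (by decide) a ha x hx
    have h3 : btw cs h X (sr 0) (-sr 2) = ⊥ := by
      unfold Nodes.Reps.btw
      rw [iSup_eq_bot]
      rintro ⟨z, hz, m, c, d, hm, hc, hd, he⟩
      exfalso
      have e0 := congrFun he 0
      have e2 := congrFun he 2
      simp only [Pi.smul_apply, Pi.add_apply, Pi.neg_apply, smul_eq_mul, s00, s02, s20, s22] at e0 e2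
      rcases hz.pos_or_neg with h4 | h4
      · have h5 : 0 ≤ m * z 2 := mul_nonneg hm.le (h4 2)
        linarith
      · have h5 : m * z 0 ≤ 0 := mul_nonpos_of_nonneg_of_nonpos hm.le (h4 0)
        linarith
    rw [h3, Subgroup.mem_bot] at h1
    exact h1
  · have h1 := R.comm (-sr 0) (-sr 2) h0.neg h2.neg (by decide) (by decide) a ha x hx
    have h3 : btw cs h X (-sr 0) (-sr 2) = ⊥ := by
      unfold Nodes.Reps.btw
      rw [iSup_eq_bot]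
      rintro ⟨z, hz, m, c, d, hm, hc, hd, he⟩
      exfalso
      have e0 := congrFun he 0
      have e1 := congrFun he 1
      have e2 := congrFun he 2
      simp only [Pi.smul_apply, Pi.add_apply, Pi.neg_apply, smul_eq_mul, s00, s01, s02, s20, s21, s22] at e0 e1 e2
      have g1 : z 1 = 0 := by
        rw [neg_zero, mul_zero, mul_zero, add_zero] at e1
        exact (mul_eq_zero.1 e1).resolve_left hm.ne'
      obtain ⟨q, hq, e⟩ := mem_rl h hz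
      rw [e] at g1 e0 e2
      rcases no02 h q hq g1 with h4 | h4
      · rw [h4, mul_zero] at e0
        linarith
      · rw [h4, mul_zero] at e2
        linarith
    rw [h3, Subgroup.mem_bot] at h1
    exact h1

variable (hirr : ∀ L : Submodule k V, Ivt ρ (GG cs h T X) L → L = ⊥ ∨ L = ⊤)
include R hirr

theorem not01 [Nontrivial V] (hV : Module.finrank k V ≤ 13) (h0 : (0 : Fin 3) ∉ Jx cs h X ρ)
    (h1 : (1 : Fin 3) ∉ Jx cs h X ρ) : False := by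
  have hD := D_pos R hirr
  have h2 := length_le R hirr [0, 1] (by simpa using ⟨h0, h1⟩) p01' (np01' h)
  have hl : p01'.length = 14 := rfl
  rw [hl] at h2
  omega

/-! ### the vertex `s_1` and the root `-α_2` -/

omit [Fact p.Prime] [CharP k p] [Finite W] [Finite Y] hirr in
theorem rp21 : Rp cs R.nsys (cs.wordProd [2, 1]) (n 2 * n 1) := by
  have h1 := (rp_simple cs R.nsys 2).mul (rp_simple cs R.nsys 1)
  rwa [← cs.wordProd_singleton 1, ← cs.wordProd_cons] at h1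

omit [Fact p.Prime] [CharP k p] [Finite W] [Finite Y] hirr in
theorem rp1 : Rp cs R.nsys (cs.wordProd [1]) (n 1) := by
  rw [cs.wordProd_singleton]
  exact rp_simple cs R.nsys 1

/-- **A root element of `-α_2` at the vertex `s_1`.** -/
theorem root_move [Nontrivial V] (hJ : ∀ j, j ∉ Jx cs h X ρ ↔ j = 1) {x : Y} (hx : x ∈ X (-sr 2)) {c : V}
    (hc : c ∈ (D cs h X ρ).map (ρ (n 1))) :
    ∃ a ∈ (D cs h X ρ).map (ρ (n 1)), ∃ b ∈ (D cs h X ρ).map (ρ (n 2 * n 1)),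
      ρ x c - a - b ∈ Kv cs h R.nsys X ρ := by
  obtain ⟨f1, f2, f3, f4, f5, f6, f7, f8⟩ := lab12 h
  have hg1 := rp1 R
  have hg2 := rp21 R
  have e1 : lb cs h 1 (cs.wordProd [1]) = lbw A 1 [1] := lb_wordProd _ _
  have e2 : lb cs h 1 (cs.wordProd [2, 1]) = lbw A 1 [2, 1] := lb_wordProd _ _
  obtain ⟨a₀, ha₀, hae⟩ := exists_D R hirr (ρ (n 1)⁻¹ (ρ x c))
  obtain ⟨b₀, hb₀, hbe⟩ := exists_D R hirr (ρ (n 2 * n 1)⁻¹ (ρ x c))
  have ha : ρ (n 1) a₀ ∈ (D cs h X ρ).map (ρ (n 1)) := ⟨a₀, ha₀, rfl⟩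
  have hb : ρ (n 2 * n 1) b₀ ∈ (D cs h X ρ).map (ρ (n 2 * n 1)) := ⟨b₀, hb₀, rfl⟩
  refine ⟨_, ha, _, hb, ?_⟩
  have hr2 : IsRoot cs h (-Pi.single 2 1 : Fin 3 → ℤ) := (isRoot_sr cs h 2).neg
  -- `ρ x c` is in the face
  have hcL : c ∈ Le cs h T X ρ {j : Fin 3 | j ≠ 0} := by
    obtain ⟨d, hd, rfl⟩ := hc
    exact Ivt_Le R _ _ (rp_mem_LJ R (word_mem_WJ (by simp)) hg1) _ (D_le_Le R _ hd)
  have hxL : ρ x c ∈ Le cs h T X ρ {j : Fin 3 | j ≠ 0} := by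
    refine Ivt_Le R _ _ (X_le_LJ (RootsJ.neg ?_) hx) _ hcL
    exact PosJ_subset _ (sr_mem_PosJ (by simp))
  intro w' g' hg' φ hφ
  have hφ' : dualRep ρ g' φ ∈ (fx (dualRep ρ) (UN cs h X)).map (dualRep ρ g') := ⟨φ, hφ, rfl⟩
  rw [map_sub, map_sub]
  by_cases c1 : lb cs h 1 w' = lbw A 1 [1]
  · rw [pair_zero R hirr hJ hg' hg2 (by rw [c1, e2]; exact f1) hφ' hb, sub_zero, sub_eq_zero]
    have h2 := map_eq_of_lb' R hirr hJ hg' hg1 (c1.trans e1.symm)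
    rw [h2] at hφ'
    obtain ⟨ψ, hψ, e⟩ := hφ'
    rw [← e, dualRep_apply, dualRep_apply, rho_inv_rho, hae ψ hψ]
  · by_cases c2 : lb cs h 1 w' = lbw A 1 [2, 1]
    · rw [pair_zero R hirr hJ hg' hg1 (by rw [e1]; exact c1) hφ' ha, sub_zero, sub_eq_zero]
      have h2 := map_eq_of_lb' R hirr hJ hg' hg2 (c2.trans e2.symm)
      rw [h2] at hφ'
      obtain ⟨ψ, hψ, e⟩ := hφ'
      rw [← e, dualRep_apply, dualRep_apply, rho_inv_rho, hbe ψ hψ]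
    · rw [pair_zero R hirr hJ hg' hg1 (by rw [e1]; exact c1) hφ' ha,
        pair_zero R hirr hJ hg' hg2 (by rw [e2]; exact c2) hφ' hb, sub_zero, sub_zero]
      obtain ⟨ω, hω, hωe⟩ := orbit_of_closed (cs := cs) (h := h) 1 l1 ⟨[], by decide, rfl⟩ (cl1 h) w'
      rcases labX h ω hω with h3 | h3 | h3
      · rw [fixd_apply R hirr hJ hg' hr2 (by rw [hωe]; exact h3) hx hφ' c]
        exact pair_zero R hirr hJ hg' hg1 (by rw [e1]; exact c1) hφ' hc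
      · exact absurd (hωe.trans h3) c2
      · by_contra hne
        obtain ⟨u, hu, huw⟩ := vertex_face R hirr hg' hφ hxL hne
        obtain ⟨ω', hω', e⟩ := face_orbit h hu
        have h4 := lb_eq_of_mem (h := h) ((hJ 1).2 rfl) huw
        exact h3 ω' hω' (by rw [← hωe, ← h4, e])

theorem finrank_Kv_le [Nontrivial V] (hV : Module.finrank k V ≤ 13) (hJ : ∀ j, j ∉ Jx cs h X ρ ↔ j = 1) :
    Module.finrank k (Kv cs h R.nsys X ρ) ≤ 1 := by
  have hi : (1 : Fin 3) ∉ Jx cs h X ρ := (hJ 1).2 rfl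
  have h2 := Kv_bound R hirr [1] (by simpa using hi) l1 (by
    have := nl1 h
    rw [show (fun ω => List.map (fun i => lbw A i ω) [(1 : Fin 3)]) = (fun x => [x]) ∘ lbw A 1 from rfl,
      ← List.map_map]
    exact this.map fun a b hab => by simpa using hab)
  have hD := D_pos R hirr
  have hl1 : l1.length = 12 := rfl
  rw [hl1] at h2
  omega

/-- the case of an element of `Kv` -/
theorem kappa_false [Nontrivial V] (hV : Module.finrank k V ≤ 13) (hJ : ∀ j, j ∉ Jx cs h X ρ ↔ j = 1)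
    (hLe : Module.finrank k (Le cs h T X ρ {1}) ≤ 2)
    {E₀ : Type*} [Field E₀] [CharP E₀ p] {σ₀ : SL(2, E₀) →* Y} (N₀ : Nd T X 0 σ₀) {τ₁ : Y} (hτ₁ : τ₁ ∈ T)
    {s : k} (hs : s ≠ -1) (hrel : ∀ v, ρ (σ₀ (ww * ww) * τ₁ * n 0) v = s • ρ (n 0 * τ₁) v)
    {x : Y} (hx : x ∈ X (-sr 2)) {a b c : V} (ha : a ∈ (D cs h X ρ).map (ρ (n 1)))
    (hb : b ∈ (D cs h X ρ).map (ρ (n 2 * n 1))) (hc : c ∈ (D cs h X ρ).map (ρ (n 1)))
    (hK : ρ x c - a - b ∈ Kv cs h R.nsys X ρ) : ρ x c - a - b = 0 := by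
  obtain ⟨f1, f2, f3, f4, f5, f6, f7, f8⟩ := lab12 h
  by_contra hκ0
  set κ := ρ x c - a - b with hκ
  have hi : (1 : Fin 3) ∉ Jx cs h X ρ := (hJ 1).2 rfl
  -- `-1` at the vertices
  have h10 : Rp cs R.nsys (cs.wordProd [1, 0]) (n 1 * n 0) := by
    have h1 := (rp_simple cs R.nsys 1).mul (rp_simple cs R.nsys 0)
    rwa [← cs.wordProd_singleton 0, ← cs.wordProd_cons] at h1
  have h210 : Rp cs R.nsys (cs.wordProd [2, 1, 0]) (n 2 * (n 1 * n 0)) := by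
    have h1 := (rp_simple cs R.nsys 2).mul h10
    rwa [← cs.wordProd_cons] at h1
  have m1 : (D cs h X ρ).map (ρ (n 1)) = (D cs h X ρ).map (ρ (n 1 * n 0)) :=
    map_eq_of_lb R hirr hJ (rp1 R) h10 (by rw [lb_wordProd, lb_wordProd, f5])
  have m2 : (D cs h X ρ).map (ρ (n 2 * n 1)) = (D cs h X ρ).map (ρ (n 2 * (n 1 * n 0))) :=
    map_eq_of_lb R hirr hJ (rp21 R) h210 (by rw [lb_wordProd, lb_wordProd, f6])
  have hn1 : ∀ v ∈ (D cs h X ρ).map (ρ (n 1)), ρ (σ₀ (ww * ww)) v = -v := by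
    rw [m1]
    exact neg_conj R hi hLe h10 (by rw [rep_wordProd]; exact f7) N₀
  have hn2 : ∀ v ∈ (D cs h X ρ).map (ρ (n 2 * n 1)), ρ (σ₀ (ww * ww)) v = -v := by
    rw [m2]
    exact neg_conj R hi hLe h210 (by rw [rep_wordProd]; exact f8) N₀
  -- `σ₀ (w ^ 2)` commutes with `x`
  have hcom : σ₀ (ww * ww) * x = x * σ₀ (ww * ww) := by
    have h1 : σ₀.range ≤ Subgroup.centralizer {x} := by
      rw [N₀.range_eq R]
      refine sup_le ?_ ?_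
      · intro a ha
        rw [Subgroup.mem_centralizer_singleton_iff]
        exact commutatorElement_eq_one_iff_mul_comm.1 (comm02 R (Or.inl ha) hx)
      · intro a ha
        rw [Subgroup.mem_centralizer_singleton_iff]
        exact commutatorElement_eq_one_iff_mul_comm.1 (comm02 R (Or.inr ha) hx)
    exact Subgroup.mem_centralizer_singleton_iff.1 (h1 ⟨_, rfl⟩)
  have hnκ : ρ (σ₀ (ww * ww)) κ = -κ := by
    have h1 : ρ (σ₀ (ww * ww)) (ρ x c) = -ρ x c := by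
      rw [← rho_mul, hcom, rho_mul, hn1 c hc, map_neg]
    rw [hκ, map_sub, map_sub, h1, hn1 a ha, hn2 b hb]
    abel
  -- the line `Kv`
  have hline : ∀ {w : W} {g : Y}, Rp cs R.nsys w g → ∃ θ : k, ρ g κ = θ • κ := by
    intro w g hg
    have h1 : (⟨κ, hK⟩ : Kv cs h R.nsys X ρ) ≠ 0 := fun e => hκ0 (congrArg Subtype.val e)
    have h2 : Module.finrank k (Kv cs h R.nsys X ρ) = 1 := by
      refine le_antisymm (finrank_Kv_le R hirr hV hJ) ?_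
      have : Nontrivial (Kv cs h R.nsys X ρ) := nontrivial_of_ne _ _ h1
      exact Module.finrank_pos
    obtain ⟨θ, hθ⟩ := (finrank_eq_one_iff_of_nonzero' _ h1).1 h2 ⟨ρ g κ, Kv_map hg hK⟩
    exact ⟨θ, (congrArg Subtype.val hθ).symm⟩
  obtain ⟨a₀, h0⟩ := hline (rp_simple cs R.nsys 0)
  obtain ⟨a₁, h1⟩ := hline (rp_of_mem (cs := cs) (hN := R.nsys) hτ₁)
  have h2 := hrel κ
  rw [rho_mul, rho_mul, rho_mul, h0, h1, map_smul, map_smul, h1, map_smul, map_smul, h0, hnκ] at h2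
  have h3 : (s + 1) • (a₀ • (a₁ • κ)) = 0 := by
    rw [add_smul, one_smul]
    have h4 : s • a₀ • a₁ • κ = -(a₀ • a₁ • κ) := by
      rw [smul_comm a₀ a₁ κ, ← h2]
      module
    rw [h4, neg_add_cancel]
  have hne : a₀ • (a₁ • κ) ≠ 0 := by
    rw [← h1, ← map_smul]
    intro h4
    have h5 : a₀ • κ = 0 := by
      by_contra h6
      exact rho_ne_zero ρ τ₁ h6 h4
    rw [← h0] at h5
    exact rho_ne_zero ρ (n 0) hκ0 h5
  rcases smul_eq_zero.1 h3 with h4 | h4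
  · exact hs (eq_neg_of_add_eq_zero_left h4)
  · exact hne h4

/-- **No module of dimension 13 with `J^c = {1}` and small edges.** -/
theorem node1_false [Nontrivial V] (hV : Module.finrank k V ≤ 13) (hJ : ∀ j, j ∉ Jx cs h X ρ ↔ j = 1)
    (hD : Module.finrank k (D cs h X ρ) = 1) (hLe : Module.finrank k (Le cs h T X ρ {1}) ≤ 2)
    {E₀ : Type*} [Field E₀] [CharP E₀ p] {σ₀ : SL(2, E₀) →* Y} (N₀ : Nd T X 0 σ₀) {τ₁ : Y} (hτ₁ : τ₁ ∈ T)
    {s : k} (hs : s ≠ -1) (hrel : ∀ v, ρ (σ₀ (ww * ww) * τ₁ * n 0) v = s • ρ (n 0 * τ₁) v)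
    {E₂ : Type*} [Field E₂] [CharP E₂ p] {σ₂ : SL(2, E₂) →* Y} (N₂ : Nd T X 2 σ₂)
    {s₂ : k} (hs₂ : s₂ ≠ -1) (hz₂ : ∀ v, ρ (σ₂ (ww * ww)) v = s₂ • v) : False := by
  obtain ⟨f1, f2, f3, f4, f5, f6, f7, f8⟩ := lab12 h
  have hg1 := rp1 R
  have hg2 := rp21 R
  have e1 : lb cs h 1 (cs.wordProd [1]) = lbw A 1 [1] := lb_wordProd _ _
  have e2 : lb cs h 1 (cs.wordProd [2, 1]) = lbw A 1 [2, 1] := lb_wordProd _ _
  have hr2 : IsRoot cs h (Pi.single 2 1 : Fin 3 → ℤ) := isRoot_sr cs h 2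
  set D1 := (D cs h X ρ).map (ρ (n 1)) with hD1
  set D2 := (D cs h X ρ).map (ρ (n 2 * n 1)) with hD2
  have hlo1 : ∀ x ∈ X (-sr 2), ∀ c ∈ D1, ρ x c ∈ D1 ⊔ D2 := by
    intro x hx c hc
    obtain ⟨a, ha, b, hb, hK⟩ := root_move R hirr hJ hx hc
    have h1 := kappa_false R hirr hV hJ hLe N₀ hτ₁ hs hrel hx ha hb hc hK
    have h2 : ρ x c = a + b := by
      rw [sub_sub, sub_eq_zero] at h1
      exact h1
    rw [h2]
    exact Submodule.add_mem_sup ha hb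
  have hlo2 : ∀ x ∈ X (-sr 2), ∀ c ∈ D2, ρ x c = c := by
    intro x hx c hc
    exact fixv R hirr hJ hg2 (x := -Pi.single 2 1) hr2.neg (by rw [e2]; exact f3) hx hc
  have hup1 : ∀ x ∈ X (sr 2), ∀ c ∈ D1, ρ x c = c := by
    intro x hx c hc
    exact fixv R hirr hJ hg1 (x := Pi.single 2 1) hr2 (by rw [e1]; exact f2) hx hc
  have hn1 : ∀ c ∈ D1, ρ (n 2) c ∈ D2 := by
    rintro _ ⟨d, hd, rfl⟩
    exact ⟨d, hd, rho_mul ρ _ _ _⟩
  have hn2 : ∀ c ∈ D2, ρ (n 2) c ∈ D1 := by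
    intro c hc
    have h1 : Rp cs R.nsys (cs.wordProd [2, 2, 1]) (n 2 * (n 2 * n 1)) := by
      have h1 := (rp_simple cs R.nsys 2).mul hg2
      rwa [← cs.wordProd_cons] at h1
    rw [hD1, map_eq_of_lb R hirr hJ hg1 h1 (by rw [lb_wordProd, lb_wordProd, f4])]
    obtain ⟨d, hd, rfl⟩ := hc
    exact ⟨d, hd, rho_mul ρ _ _ _⟩
  have hup2 : ∀ x ∈ X (sr 2), ∀ c ∈ D2, ρ x c ∈ D1 ⊔ D2 := by
    intro x hx c hc
    obtain ⟨d, hd, rfl⟩ := hc
    have h1 : (n 2)⁻¹ * x * n 2 ∈ X (-sr 2) := by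
      have h2 := R.conj_mem' (rp_simple cs R.nsys 2) (isRoot_sr cs h 2) hx
      rwa [cs.inv_simple, rep_simple_sr] at h2
    have h2 : ρ x (ρ (n 2 * n 1) d) = ρ (n 2) (ρ ((n 2)⁻¹ * x * n 2) (ρ (n 1) d)) := by
      rw [← rho_mul, ← rho_mul, ← rho_mul]
      congr 2
      group
    rw [h2]
    obtain ⟨a, ha, b, hb, e⟩ := Submodule.mem_sup.1 (hlo1 _ h1 (ρ (n 1) d) ⟨d, hd, rfl⟩)
    rw [← e, map_add]
    exact Submodule.add_mem _ (Submodule.mem_sup_right (hn1 a ha)) (Submodule.mem_sup_left (hn2 b hb))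
  -- a vector of `D1`
  obtain ⟨c₀, hc₀, hc₀0⟩ := (Submodule.ne_bot_iff _).1 (simp_fx R ρ hirr).ne
  have hc1 : ρ (n 1) c₀ ∈ D1 := ⟨c₀, hc₀, rfl⟩
  have hc10 : ρ (n 1) c₀ ≠ 0 := rho_ne_zero ρ _ hc₀0
  obtain ⟨x, hx, hx1⟩ := (X (-sr 2)).bot_or_exists_ne_one.resolve_left (X_ne_bot R (isRoot_sr cs h 2).neg)
  have hmv : ρ x (ρ (n 1) c₀) ≠ ρ (n 1) c₀ := by
    intro he
    obtain ⟨a, ha, t, ht, b, hb, e⟩ := R.rk1 2 x hx hx1
    have h1 : n 2 = t⁻¹ * (a⁻¹ * (x * b⁻¹)) := by rw [e]; group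
    have h2 : ρ (n 2) (ρ (n 1) c₀) = ρ t⁻¹ (ρ (n 1) c₀) := by
      rw [h1, rho_mul, rho_mul, rho_mul, hup1 _ (inv_mem hb) _ hc1, he, hup1 _ (inv_mem ha) _ hc1]
    have h3 : ρ t⁻¹ (ρ (n 1) c₀) ∈ D1 := by
      have h4 := (rp_of_mem (cs := cs) (hN := R.nsys) (inv_mem ht)).mul hg1
      rw [hD1, map_eq_of_lb R hirr hJ hg1 h4 (by rw [one_mul])]
      exact ⟨c₀, hc₀, rho_mul ρ _ _ _⟩
    have h5 := D_inf R hirr hg1 hg2 (fun h6 => f1 (by
      have h7 := lb_eq_of_mem (h := h) ((hJ 1).2 rfl) h6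
      rwa [e1, e2] at h7))
    have h6 : ρ (n 2) (ρ (n 1) c₀) ∈ D1 ⊓ D2 := ⟨by rw [h2]; exact h3, hn1 _ hc1⟩
    rw [hD1, hD2, h5, Submodule.mem_bot] at h6
    exact rho_ne_zero ρ _ hc10 h6
  obtain ⟨t₀, rfl⟩ := (N₂.lo _).1 hx
  have hfr : Module.finrank k (D1 ⊔ D2 : Submodule k V) ≤ 2 := by
    refine (Submodule.finrank_add_le_finrank_add_finrank _ _).trans ?_
    rw [hD1, hD2, finrank_map, finrank_map, hD]
  have hneg := sl2_neg' (p := p) ρ σ₂ (D1 ⊔ D2) hfr (fun t v hv => by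
      obtain ⟨a, ha, b, hb, rfl⟩ := Submodule.mem_sup.1 hv
      rw [map_add, hup1 _ ((N₂.up _).2 ⟨t, rfl⟩) a ha]
      exact Submodule.add_mem _ (Submodule.mem_sup_left ha) (hup2 _ ((N₂.up _).2 ⟨t, rfl⟩) b hb))
    (fun t v hv => by
      obtain ⟨a, ha, b, hb, rfl⟩ := Submodule.mem_sup.1 hv
      rw [map_add, hlo2 _ ((N₂.lo _).2 ⟨t, rfl⟩) b hb]
      exact Submodule.add_mem _ (hlo1 _ ((N₂.lo _).2 ⟨t, rfl⟩) a ha) (Submodule.mem_sup_right hb))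
    (c := ρ (n 1) c₀) (Submodule.mem_sup_left hc1) (fun t => hup1 _ ((N₂.up _).2 ⟨t, rfl⟩) _ hc1) (t₀ := t₀) hmv
    (ρ (n 1) c₀) (Submodule.mem_sup_left hc1)
  rw [hz₂] at hneg
  have h4 : (s₂ + 1) • ρ (n 1) c₀ = 0 := by rw [add_smul, one_smul, hneg, neg_add_cancel]
  rcases smul_eq_zero.1 h4 with h5 | h5
  · exact hs₂ (eq_neg_of_add_eq_zero_left h5)
  · exact hc10 h5

end Cfsg.Agent.H451.EP.B3
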