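import Cfsg.Agent.H948.Ppd.EdgeB

/-!
# Elements of the kernel of the cover act as scalars of `n`-th power one (helper451)
-/

set_option autoImplicit false
set_option linter.unusedSectionVars false

namespace Cfsg.Agent.H451.EP

open CoxeterSystem Cfsg.Agent.ChevalleyStructure.CoxeterGeom Cfsg.Agent.Tits.Roots Cfsg.Agent.Tits.Core
  Cfsg.Agent.Nodes.Reps Cfsg.Agent.Nodes.BNOf Cfsg.Agent.Nodes.Bruhat Cfsg.Agent.Nodes.RGDLib
open Cfsg.Agent.Nodes Cfsg.Agent.Nodes.WittRoot Cfsg.Agent.Nodes.WittRGD Cfsg.Agent.Nodes.WittAll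
open Cfsg.Agent.Nodes.TypeC (isCartan)
open Cfsg.Agent.TitsThree.Siegel Cfsg.Agent.TitsThree.SiegelGen Cfsg.Agent.TitsThree.WittFrame Cfsg.Agent.TitsThree.FrameCN
  Cfsg.Agent.TitsThree.WBridge Cfsg.Agent.TitsThree.KSideO
open Cfsg.Agent.H915.LD Cfsg.Agent.H911 Cfsg.Agent.H905.Md Cfsg.Agent.H925.Nat Cfsg.Agent.Nodes.RGDLift
open Cfsg.Agent.H156.Ppd (Cov lrep exists_cov)
open Cfsg.Agent.Omega.CR Cfsg.Agent.Omega.FOne.Lift.Sd
open Cfsg.Agent.H948.Ppd
open Cfsg Cfsg.Geo
open scoped MatrixGroups Matrix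

universe u v w

section

variable {F : Type u} [Field F] [Finite F] {ι : Type} [Fintype ι] [DecidableEq ι] {P : Subgroup (GL ι F)}

theorem det_eq_one (hC : Core P) {g : GL ι F} (hg : g ∈ P) : (g : Matrix ι ι F).det = 1 := by
  have h1 : commutator P ≤ (Matrix.GeneralLinearGroup.det.comp P.subtype).ker :=
    Abelianization.commutator_subset_ker _
  rw [hC.commutator_top] at h1
  have h2 : (⟨g, hg⟩ : P) ∈ (Matrix.GeneralLinearGroup.det.comp P.subtype).ker := h1 trivial
  rw [MonoidHom.mem_ker] at h2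
  exact congrArg Units.val h2

variable {K : Type} [Field K] [Finite K] {ν : Type} [Fintype ν] [DecidableEq ν]
  {H : HForm K (ν → K)} {n : ℕ} {Fr : Frame H (Fin n)} {T₀ : Type v} [Group T₀] {M : Model Fr T₀} {p : ℕ}
  [hp : Fact p.Prime] [hFp : CharP F p] [hKp : CharP K p] (hC : Core P) {hA : AmbT Fr p M.I} {p0 : Fr.Adm}
  {Y : Type w} [Group Y] [Finite Y] {f : Y →* M.I} {φ : Y →* GL ι F} {n₁ : Fin n → Y}
  (C : Cov (CoxeterMatrix.B n).toCoxeterSystem (isCartan n) p (TB M) (NB hA p0) (XB M) P f φ n₁)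
  (hT : ∀ s ∈ (TB M).comap f, ∀ t ∈ (TB M).comap f, s * t = t * s)

include hC C hT

/-- **The kernel acts by scalars.** -/
theorem scalar_of_ker {z : Y} (hz : f z = 1) :
    ∃ s : AlgebraicClosure F, s ^ Fintype.card ι = 1 ∧ ∀ v, lin (acRep φ) z v = s • v := by
  have hWf : Finite (CoxeterMatrix.B n).Group := TypeC.finite_W (CoxeterMatrix.B n).toCoxeterSystem
  have hne := hC.nonempty
  obtain ⟨hirr, -⟩ := irr_B hC C hT
  have hzc : ∀ y : Y, y * z = z * y := fun y => Subgroup.mem_center_iff.1 (C.ker hz) y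
  obtain ⟨s, hs⟩ := Module.End.exists_eigenvalue (lin (acRep φ) z)
  obtain ⟨v, hv⟩ := hs.exists_hasEigenvector
  have htop : Module.End.eigenspace (lin (acRep φ) z) s = ⊤ := by
    have hI : Ivt (lin (acRep φ)) (GG (CoxeterMatrix.B n).toCoxeterSystem (isCartan n) ((TB M).comap f)
      (fun x => lft p f (XB M x))) (Module.End.eigenspace (lin (acRep φ) z) s) := by
      intro y _ u hu
      rw [Module.End.mem_eigenspace_iff] at hu ⊢
      have h1 : lin (acRep φ) z (lin (acRep φ) y u) = lin (acRep φ) y (lin (acRep φ) z u) := by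
        rw [← Module.End.mul_apply, ← Module.End.mul_apply, ← map_mul, ← map_mul, hzc]
      rw [h1, hu, map_smul]
    refine (hirr _ hI).resolve_left fun h0 => hv.2 ?_
    have h1 : v ∈ Module.End.eigenspace (lin (acRep φ) z) s := hv.1
    rw [h0] at h1
    exact (Submodule.mem_bot _).1 h1
  have hall : ∀ v, lin (acRep φ) z v = s • v := by
    intro v
    have h1 : v ∈ Module.End.eigenspace (lin (acRep φ) z) s := by rw [htop]; trivial
    exact Module.End.mem_eigenspace_iff.1 h1
  refine ⟨s, ?_, hall⟩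
  have hm : acRep φ z = Matrix.scalar ι s := by
    apply Matrix.toLin'.injective
    refine LinearMap.ext fun v => ?_
    rw [Matrix.toLin'_apply, Matrix.toLin'_apply, ← lin_apply, hall, Matrix.scalar_apply]
    funext i
    rw [Matrix.mulVec_diagonal, Pi.smul_apply, smul_eq_mul]
  have hd : (acRep φ z).det = 1 := by
    rw [acRep_apply]
    have h1 := det_eq_one hC (C.mem z)
    have h2 := (algebraMap F (AlgebraicClosure F)).map_det (φ z : Matrix ι ι F)
    rw [h1, map_one] at h2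
    exact h2.symm
  rw [hm, Matrix.scalar_apply, Matrix.det_diagonal, Finset.prod_const, Finset.card_univ] at hd
  exact hd

end

end Cfsg.Agent.H451.EP
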