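import Cfsg.Agent.H451.EP.Sl2
import Cfsg.Agent.H451.EP.ClaimZ
import Cfsg.Agent.H948.Ppd.NdOdd

/-!
# A two-dimensional edge: the central involution of the rank one group acts as `-1` (helper451)

* `neg_on_edge` : `i ∉ J`, `dim Le {i} ≤ 2` : `σ (w ^ 2) = -1` on `Le {i}`;
* `nd_last_one` : the last node of an odd dimensional orthogonal group with `σ (w ^ 2) = 1`;
* **`last_odd`** : so the last node, an edge of dimension 2 and an odd degree are incompatible.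
-/

set_option autoImplicit false
set_option linter.unusedSectionVars false
set_option linter.style.haveILetI false

namespace Cfsg.Agent.H451.EP

open CoxeterSystem Cfsg.Agent.ChevalleyStructure.CoxeterGeom Cfsg.Agent.Tits.Roots Cfsg.Agent.Tits.Core
  Cfsg.Agent.Nodes.Reps Cfsg.Agent.Nodes.BNOf Cfsg.Agent.Nodes.Bruhat Cfsg.Agent.Nodes.RGDLib
  Cfsg.Agent.Nodes.LeviDec Cfsg.Agent.Nodes.StabComb
open Cfsg.Agent.Nodes Cfsg.Agent.Nodes.WittRoot Cfsg.Agent.Nodes.WittRGD Cfsg.Agent.Nodes.WittAll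
open Cfsg.Agent.Nodes.TypeC (isCartan)
open Cfsg.Agent.TitsThree.Siegel Cfsg.Agent.TitsThree.SiegelGen Cfsg.Agent.TitsThree.WittFrame Cfsg.Agent.TitsThree.FrameCN
  Cfsg.Agent.TitsThree.WBridge Cfsg.Agent.TitsThree.KSideO
open Cfsg.Agent.H915.LD Cfsg.Agent.H911 Cfsg.Agent.H905.Md Cfsg.Agent.H925.Nat Cfsg.Agent.Nodes.RGDLift
open Cfsg.Agent.H156.Ppd (Cov lrep exists_cov)
open Cfsg.Agent.Omega.CR Cfsg.Agent.Omega.FOne.Lift.Sd
open Cfsg.Agent.H948.Ppd Cfsg.Agent.H911.SLTwo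
open Cfsg.Agent.LieClassical Cfsg.Agent.LieClassical.OrthCore
open Cfsg.Agent.H48.OCross
open Cfsg Cfsg.Geo
open scoped MatrixGroups Matrix

universe u v w x

section edge

variable {I W Y : Type*} [Fintype I] [DecidableEq I] [Group W] [Group Y] {M : CoxeterMatrix I}
  {cs : CoxeterSystem M W} {A : I → I → ℤ} {h : IsCartan M A} {p : ℕ} {T : Subgroup Y} {n : I → Y}
  {X : (I → ℤ) → Subgroup Y} {k V : Type*} [Field k] [AddCommGroup V] [Module k V]

theorem neg_on_edge [Fact p.Prime] [CharP k p] {ρ : Y →* Module.End k V} [FiniteDimensional k V] {i : I}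
    (hi : i ∉ Jx cs h X ρ) (hL : Module.finrank k (Le cs h T X ρ {i}) ≤ 2) {E : Type*} [Field E] [CharP E p]
    {σ : SL(2, E) →* Y} (N : Nd T X i σ) : ∀ v ∈ Le cs h T X ρ {i}, ρ (σ (ww * ww)) v = -v := by
  have hiv : Ivt ρ (LJ cs h T X {i}) (Le cs h T X ρ {i}) := Ivt_Sp _ _
  have h1 : ∃ x ∈ X (-sr i), ∃ v ∈ D cs h X ρ, ρ x v ≠ v := by
    by_contra hcon
    push Not at hcon
    exact hi fun x hx v hv => hcon x hx v hv
  obtain ⟨x, hx, c, hc, hne⟩ := h1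
  obtain ⟨t₀, rfl⟩ := (N.lo _).1 hx
  have hup : X (sr i) ≤ LJ cs h T X {i} := by
    refine le_trans ?_ (le_sup_right (a := T))
    exact RGD.le_Sup (S := RootsJ cs h ({i} : Set I)) (sr_mem_Roots i)
  have hlo : X (-sr i) ≤ LJ cs h T X {i} := by
    refine le_trans ?_ (le_sup_right (a := T))
    exact RGD.le_Sup (S := RootsJ cs h ({i} : Set I)) (RootsJ.neg (sr_mem_Roots i))
  refine sl2_neg' (p := p) ρ σ (Le cs h T X ρ {i}) hL (fun t v hv => hiv _ (hup ((N.up _).2 ⟨t, rfl⟩)) v hv)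
    (fun t v hv => hiv _ (hlo ((N.lo _).2 ⟨t, rfl⟩)) v hv) (c := c) (le_Sp ρ hc) (fun t => ?_) (t₀ := t₀) hne
  exact hc _ (RGD.le_Sup (S := RGD.Pos cs h) ⟨isRoot_sr cs h i, sr_nonneg i⟩ ((N.up _).2 ⟨t, rfl⟩))

end edge

section last

variable {ι : Type} [Fintype ι] [DecidableEq ι] {F : Type u} [Field F] {Q : QuadraticForm F (ι → F)} {m : ℕ}
  {W : WFrame (PO Q) m} {d : ι → F}

theorem ww_ww : (ww * ww : SL(2, F)) = hh (-1) := by
  apply ext' <;> simp [m00, m01, m10, m11, ww00, ww01, ww10, ww11, hh00, hh01, hh10, hh11]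

theorem phiO_ww (h2 : (2 : F) ≠ 0) (hd : Span W d) (i : Fin m) : phiO (hd.triple h2 i) (ww * ww) = 1 := by
  ext1 v
  rw [phiO_apply, linO_apply]
  have e00 : (ww * ww : SL(2, F)).1 0 0 = -1 := by rw [m00, ww00, ww01, ww10]; ring
  have e01 : (ww * ww : SL(2, F)).1 0 1 = 0 := by rw [m01, ww00, ww01, ww11]; ring
  have e10 : (ww * ww : SL(2, F)).1 1 0 = 0 := by rw [m10, ww00, ww10, ww11]; ring
  have e11 : (ww * ww : SL(2, F)).1 1 1 = -1 := by rw [m11, ww10, ww01, ww11]; ring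
  rw [e00, e01, e10, e11]
  change _ = v
  module

/-- **The last node, odd dimension**, `-1` is in the kernel. -/
theorem nd_last_one (h2 : (2 : F) ≠ 0) (hd : Span W d) {G0 : Subgroup ((ι → F) ≃ₗ[F] (ι → F))}
    (hle : ∀ x, WittRoot.rg (toFrame W) x ≤ G0) {i : Fin m} (hi : ¬ (i : ℕ) + 1 < m) :
    ∃ σ : SL(2, F) →* G0, σ (ww * ww) = 1 ∧ Nd ((Tor (toFrame W) G0).subgroupOf G0)
      (fun x => (WittRoot.rg (toFrame W) x).subgroupOf G0) i σ := by
  have hadm : ∀ t : F, ∃ p : (toFrame W).Adm, p.w = t • d := fun t =>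
    ⟨⟨t • d, -Q (t • d), W.V0.smul_mem t hd.mem, rfl⟩, rfl⟩
  have hu : ∀ y, y ∈ WittRoot.rg (toFrame W) (sr i) ↔ ∃ t, phiO (hd.triple h2 i) (U t) = y := by
    intro y
    rw [rg_sr, H61.SUNode.nx_of_not hi, PG_self]
    constructor
    · rintro ⟨p, rfl⟩
      obtain ⟨t, ht⟩ := hd.span p.w p.ok.1
      exact ⟨t, phiO_up h2 hd i t p ht⟩
    · rintro ⟨t, rfl⟩
      obtain ⟨p, hp⟩ := hadm t
      exact ⟨p, phiO_up h2 hd i t p hp⟩
  have hl : ∀ y, y ∈ WittRoot.rg (toFrame W) (-sr i) ↔ ∃ t, phiO (hd.triple h2 i) (Lo t) = y := by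
    intro y
    rw [rg_neg_sr, H61.SUNode.nx_of_not hi, PG_self]
    constructor
    · rintro ⟨p, rfl⟩
      obtain ⟨t, ht⟩ := hd.span p.w p.ok.1
      exact ⟨-t, phiO_lo h2 hd i (-t) p (by rw [_root_.neg_neg]; exact ht)⟩
    · rintro ⟨t, rfl⟩
      obtain ⟨p, hp⟩ := hadm (-t)
      exact ⟨p, phiO_lo h2 hd i t p hp⟩
  obtain ⟨σ, hσ', hσ⟩ := exists_nd hle (phiO (hd.triple h2 i)) hu hl (phiO_hh h2 hd i)
  refine ⟨σ, Subtype.ext ?_, hσ⟩
  rw [hσ', phiO_ww h2 hd i]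
  rfl

end last

section main

variable {F : Type u} [Field F] [Finite F] {ι : Type} [Fintype ι] [DecidableEq ι] {P : Subgroup (GL ι F)}
  {K : Type} [Field K] [Finite K] {ν : Type} [Fintype ν] [DecidableEq ν]
  {H : HForm K (ν → K)} {n : ℕ} {Fr : Frame H (Fin n)} {T₀ : Type v} [Group T₀] {M : Model Fr T₀} {p : ℕ}
  [hp : Fact p.Prime] [hFp : CharP F p] [hKp : CharP K p] (hC : Core P) {hA : AmbT Fr p M.I} {p0 : Fr.Adm}
  {Y : Type w} [Group Y] [Finite Y] {f : Y →* M.I} {φ : Y →* GL ι F} {n₁ : Fin n → Y}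
  (C : Cov (CoxeterMatrix.B n).toCoxeterSystem (isCartan n) p (TB M) (NB hA p0) (XB M) P f φ n₁)
  (hT : ∀ s ∈ (TB M).comap f, ∀ t ∈ (TB M).comap f, s * t = t * s)

include hC C hT

/-- **A node `i ∉ J` with an edge of dimension at most 2, `σ' (-1) = 1`: the degree is even.** -/
theorem last_odd (hp0 : p0.c ≠ 0) (h2 : p ≠ 2) (hodd : Odd (Fintype.card ι)) {i : Fin n} (hi : i ∉ JB M p f φ)
    (hd : dB M p f φ i ≤ 2) {E : Type} [Field E] [Finite E] [CharP E p] {σ' : SL(2, E) →* M.I}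
    (N' : Nd (TB M) (XB M) i σ') (hσ' : σ' (ww * ww) = 1) : False := by
  have hne := hC.nonempty
  have hchar : CharP (AlgebraicClosure F) p := charP_of_injective_algebraMap (algebraMap F _).injective p
  obtain ⟨σ, hσ, N⟩ := lift_nd C hp0 N'
  obtain ⟨s, hs, hsv⟩ := scalar_of_ker hC C hT (z := σ (ww * ww)) (by rw [hσ, hσ'])
  have h1 := neg_on_edge (p := p) hi hd N
  obtain ⟨-, hD⟩ := irr_B hC C hT
  obtain ⟨⟨c, hc⟩, hc0, -⟩ := finrank_eq_one_iff'.1 hD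
  have hc0' : c ≠ 0 := fun h => hc0 (Subtype.ext h)
  have h3 := h1 c (le_Sp _ hc)
  rw [hsv] at h3
  have h4 : s = -1 := by
    have h5 : (s + 1) • c = 0 := by rw [add_smul, one_smul, h3, neg_add_cancel]
    rcases smul_eq_zero.1 h5 with h | h
    · exact eq_neg_of_add_eq_zero_left h
    · exact absurd h hc0'
  rw [h4, hodd.neg_one_pow] at hs
  have h6 : (2 : AlgebraicClosure F) = 0 := by
    have : (2 : AlgebraicClosure F) = 1 - (-1) := by norm_num
    rw [this, hs, sub_self]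
  have h7 : ((2 : ℕ) : AlgebraicClosure F) = 0 := by exact_mod_cast h6
  have h8 := (CharP.cast_eq_zero_iff (AlgebraicClosure F) p 2).1 h7
  exact h2 ((Nat.prime_dvd_prime_iff_eq hp.out Nat.prime_two).1 h8)

end main

end Cfsg.Agent.H451.EP
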