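import Cfsg.Agent.H948.Ppd.NdWitt
import Cfsg.Agent.H905.MdJ

/-!
# The elements `-1` of the long nodes of a Witt frame of rank 3 (helper451)

* `phiS_neg`, `phiS_V0` : the element `-1` of the node `i` changes the signs of the coordinates `i`, `j`;
* **`rel01`** : `σ_0(-1) σ_1(-1) n_0 = n_0 σ_1(-1)`.
-/

set_option autoImplicit false
set_option linter.unusedSectionVars false

namespace Cfsg.Agent.H451.EP

open Cfsg.Agent.ChevalleyStructure.CoxeterGeom Cfsg.Agent.Tits.Roots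
open Cfsg.Agent.Nodes.Comb Cfsg.Agent.Nodes.Reps Cfsg.Agent.Nodes.WittRoot Cfsg.Agent.Nodes.BNOf
open Cfsg.Agent.Nodes.RGDLib Cfsg.Agent.Nodes.WittAll Cfsg.Agent.Nodes
open Cfsg.Agent.TitsThree Cfsg.Agent.TitsThree.Siegel Cfsg.Agent.TitsThree.WittFrame Cfsg.Agent.TitsThree.WittWeyl
open Cfsg.Agent.Nodes.TypeC (ng ng_ng ng_fst ng_snd nx sg sg_up sg_down sg_of_ne)
open Cfsg.Agent.Nodes.WittRGD (Tor mem_Tor rg_sr rg_neg_sr nn mono_nn mono_nX)
open Cfsg.Agent.H911.SLTwo Cfsg.Agent.H62.FrameSL Cfsg.Agent.H948.Ppd Cfsg.Agent.H905.Md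
open scoped MatrixGroups

variable {F : Type*} [Field F] {V : Type*} [AddCommGroup V] [Module F V] {H : HForm F V}

theorem phiS_V0 {n : ℕ} {Fr : Frame H (Fin n)} {i j : Fin n} (hij : i ≠ j) (g : SL(2, F)) {v : V} (hv : v ∈ Fr.V0) :
    phiS Fr hij g v = v := by
  rw [phiS_apply, linS_apply]
  simp only [Fr.h0' _ hv, mul_zero, add_zero, sub_zero, zero_smul]

theorem phiS_neg {n : ℕ} {Fr : Frame H (Fin n)} {i j : Fin n} (hij : i ≠ j) (x : Fin n × Bool) :
    phiS Fr hij (ww * ww) (Fr.b x) = (if x.1 = i ∨ x.1 = j then (-1 : F) else 1) • Fr.b x := by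
  have hε := H.ε_ne
  have e00 : (ww * ww : SL(2, F)).1 0 0 = -1 := by rw [m00, ww00, ww01, ww10]; ring
  have e01 : (ww * ww : SL(2, F)).1 0 1 = 0 := by rw [m01, ww00, ww01, ww11]; ring
  have e10 : (ww * ww : SL(2, F)).1 1 0 = 0 := by rw [m10, ww00, ww10, ww11]; ring
  have e11 : (ww * ww : SL(2, F)).1 1 1 = -1 := by rw [m11, ww10, ww01, ww11]; ring
  obtain ⟨k, b⟩ := x
  rw [phiS_apply, linS_apply, e00, e01, e10, e11]
  have eσ : H.σ (-1 : F) = -1 := by rw [_root_.map_neg, map_one]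
  rw [eσ, map_zero]
  simp only [zero_mul, add_zero, sub_zero, zero_add, neg_zero]
  by_cases hk : k = i
  · subst hk
    rw [if_pos (Or.inl rfl)]
    cases b
    · simp only [H62.FrameSL.hs, H62.FrameSL.hf, H62.FrameSL.hn Fr hij, inv_mul_cancel₀ hε]
      simp only [mul_zero, mul_one, zero_smul, add_zero]
      module
    · simp only [H62.FrameSL.hs, H62.FrameSL.ht, H62.FrameSL.hn Fr hij]
      simp only [mul_zero, mul_one, zero_smul, add_zero]
      module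
  · by_cases hk' : k = j
    · subst hk'
      rw [if_pos (Or.inr rfl)]
      cases b
      · simp only [H62.FrameSL.hs, H62.FrameSL.hf, H62.FrameSL.hn Fr hij.symm, inv_mul_cancel₀ hε]
        simp only [mul_zero, mul_one, zero_smul, add_zero]
        module
      · simp only [H62.FrameSL.hs, H62.FrameSL.ht, H62.FrameSL.hn Fr hij.symm]
        simp only [mul_zero, mul_one, zero_smul, add_zero]
        module
    · rw [if_neg (by rintro (h | h); exacts [hk h, hk' h])]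
      rw [H62.FrameSL.hn Fr hk, H62.FrameSL.hn Fr hk, H62.FrameSL.hn Fr hk', H62.FrameSL.hn Fr hk']
      simp only [mul_zero, zero_smul, add_zero, one_smul]

variable {Fr : Frame H (Fin 3)}

/-- the element `n_0` fixes the anisotropic part -/
theorem nn_V0 (p0 : Fr.Adm) {v : V} (hv : v ∈ Fr.V0) : nn Fr p0 0 v = v := by
  unfold WittRGD.nn
  rw [if_pos (by decide)]
  exact nX_apply_V0 Fr (by unfold TypeC.nx; decide) hv 1

theorem sg0 (x : Fin 3 × Bool) : (x.1 = 0 ∧ (sg 0 x).1 = 1) ∨ (x.1 = 1 ∧ (sg 0 x).1 = 0) ∨ (x.1 = 2 ∧ (sg 0 x).1 = 2) := by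
  revert x
  decide

/-- **`σ_0(-1) σ_1(-1) n_0 = n_0 σ_1(-1)`** -/
theorem rel01 (hV0 : ∀ v, (∀ x, H.h v (Fr.b x) = 0) → v ∈ Fr.V0) (hk : Kd Fr) {G0 : Subgroup (V ≃ₗ[F] V)}
    (hiso : ∀ g ∈ G0, H.IsIso g) {p0 : Fr.Adm} (hp0 : p0.c ≠ 0) (h01 : (0 : Fin 3) ≠ 1) (h12 : (1 : Fin 3) ≠ 2)
    (ha : phiS Fr h01 (ww * ww) ∈ G0) (hb : phiS Fr h12 (ww * ww) ∈ G0) (hm : nn Fr p0 0 ∈ G0) :
    phiS Fr h01 (ww * ww) * phiS Fr h12 (ww * ww) * nn Fr p0 0 = nn Fr p0 0 * phiS Fr h12 (ww * ww) := by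
  set a := phiS Fr h01 (ww * ww) with hae
  set b := phiS Fr h12 (ww * ww) with hbe
  set m := nn Fr p0 0 with hme
  have h1 : (m * b)⁻¹ * (a * b * m) = 1 := by
    refine iso_one hV0 hk (hiso _ (mul_mem (inv_mem (mul_mem hm hb)) (mul_mem (mul_mem ha hb) hm))) ?_ ?_
    · intro x
      obtain ⟨l, hl, e⟩ := mono_nn hp0 0 x
      have e1 : (a * b * m) (Fr.b x) = (m * b) (Fr.b x) := by
        change a (b (m (Fr.b x))) = m (b (Fr.b x))
        rw [e, map_smul, phiS_neg, map_smul, map_smul, phiS_neg, phiS_neg, map_smul, e]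
        rcases sg0 x with ⟨h2, h3⟩ | ⟨h2, h3⟩ | ⟨h2, h3⟩ <;> rw [h2, h3] <;> simp
      change (m * b)⁻¹ ((a * b * m) (Fr.b x)) = Fr.b x
      rw [e1]
      exact (m * b).symm_apply_apply _
    · intro v hv
      have e1 : (a * b * m) v = (m * b) v := by
        change a (b (m v)) = m (b v)
        rw [nn_V0 p0 hv, phiS_V0 h12 _ hv, phiS_V0 h01 _ hv, nn_V0 p0 hv]
      change (m * b)⁻¹ ((a * b * m) v) = v
      rw [e1]
      exact (m * b).symm_apply_apply _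
  exact (inv_mul_eq_one.1 h1).symm

end Cfsg.Agent.H451.EP
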