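import Cfsg.Agent.H451.EP.EdgeNeg
import Cfsg.Agent.H451.EP.BThree
import Cfsg.Agent.H451.EP.RelA

/-!
# Odd dimensional orthogonal groups of rank 3, degree 13, the middle node (helper451)

* `nd_long'` : the long nodes with the explicit homomorphism;
* **`mid_false`** : degree 13, the node `1` outside `J`, an edge of dimension at most 2: impossible.
-/

set_option autoImplicit false
set_option linter.unusedSectionVars false
set_option linter.style.haveILetI false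

namespace Cfsg.Agent.H451.EP

open CoxeterSystem Cfsg.Agent.ChevalleyStructure.CoxeterGeom Cfsg.Agent.Tits.Roots Cfsg.Agent.Tits.Core
  Cfsg.Agent.Nodes.Reps Cfsg.Agent.Nodes.BNOf Cfsg.Agent.Nodes.Bruhat Cfsg.Agent.Nodes.RGDLib
open Cfsg.Agent.Nodes Cfsg.Agent.Nodes.WittRoot Cfsg.Agent.Nodes.WittRGD Cfsg.Agent.Nodes.WittAll
open Cfsg.Agent.Nodes.TypeC (isCartan ng)
open Cfsg.Agent.TitsThree.Siegel Cfsg.Agent.TitsThree.SiegelGen Cfsg.Agent.TitsThree.WittFrame Cfsg.Agent.TitsThree.FrameCN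
  Cfsg.Agent.TitsThree.WBridge Cfsg.Agent.TitsThree.KSideO
open Cfsg.Agent.H915.LD Cfsg.Agent.H911 Cfsg.Agent.H905.Md Cfsg.Agent.H925.Nat Cfsg.Agent.Nodes.RGDLift
open Cfsg.Agent.H156.Ppd (Cov lrep exists_cov)
open Cfsg.Agent.Omega.CR Cfsg.Agent.Omega.FOne.Lift.Sd
open Cfsg.Agent.H948.Ppd Cfsg.Agent.H911.SLTwo Cfsg.Agent.H62.FrameSL
open Cfsg Cfsg.Geo
open scoped MatrixGroups Matrix

universe u v w

section long

variable {F : Type*} [Field F] {V : Type*} [AddCommGroup V] [Module F V] {H : HForm F V} {n : ℕ}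
  {Fr : Frame H (Fin n)} {G0 : Subgroup (V ≃ₗ[F] V)}

/-- **The long nodes**, explicit. -/
theorem nd_long' (hle : ∀ x, WittRoot.rg Fr x ≤ G0) {i j : Fin n} (hi : (i : ℕ) + 1 = j) (hij : i ≠ j) :
    ∃ σ : SL(2, F) →* G0, (∀ g, (σ g : V ≃ₗ[F] V) = phiS Fr hij g) ∧
      Nd ((Tor Fr G0).subgroupOf G0) (fun x => (WittRoot.rg Fr x).subgroupOf G0) i σ := by
  have hi' : (i : ℕ) + 1 < n := by omega
  have hj : j = ⟨i + 1, hi'⟩ := Fin.ext hi.symm
  subst hj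
  have hu : ∀ y, y ∈ WittRoot.rg Fr (sr i) ↔ ∃ t, phiS Fr hij (U t) = y := by
    intro y
    rw [rg_sr, PG_ne Fr (H61.SUNode.ne_nx hi'), H61.SUNode.nx_of_lt hi', mem_XG]
    exact exists_congr fun t => eq_comm.trans (iff_of_eq (congrArg (· = y) (phiS_up Fr hij t).symm))
  have hl : ∀ y, y ∈ WittRoot.rg Fr (-sr i) ↔ ∃ t, phiS Fr hij (Lo t) = y := by
    intro y
    rw [rg_neg_sr, PG_ne Fr (a := ng (i, true)) (b := ng (TypeC.nx i)) (H61.SUNode.ne_nx hi'),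
      XG_swap Fr (a := ng (i, true)) (b := ng (TypeC.nx i)) (H61.SUNode.ne_nx hi'), H61.SUNode.nx_of_lt hi', mem_XG]
    exact exists_congr fun t => eq_comm.trans (iff_of_eq (congrArg (· = y) (phiS_lo Fr hij t).symm))
  exact exists_nd hle (phiS Fr hij) hu hl (phiS_hh hij)

end long

section main

variable {F : Type u} [Field F] [Finite F] {ι : Type} [Fintype ι] [DecidableEq ι] {P : Subgroup (GL ι F)}
  {K : Type} [Field K] [Finite K] {ν : Type} [Fintype ν] [DecidableEq ν]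
  {H : HForm K (ν → K)} {Fr : Frame H (Fin 3)} {T₀ : Type v} [Group T₀] {M : Model Fr T₀} {p : ℕ}
  [hp : Fact p.Prime] [hFp : CharP F p] [hKp : CharP K p] (hC : Core P) {hA : AmbT Fr p M.I} {p0 : Fr.Adm}
  {Y : Type w} [Group Y] [Finite Y] {f : Y →* M.I} {φ : Y →* GL ι F} {n₁ : Fin 3 → Y}
  (C : Cov (CoxeterMatrix.B 3).toCoxeterSystem (isCartan 3) p (TB M) (NB hA p0) (XB M) P f φ n₁)
  (hT : ∀ s ∈ (TB M).comap f, ∀ t ∈ (TB M).comap f, s * t = t * s)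

omit hFp [Finite F] in
theorem ne_neg_one (h2 : p ≠ 2) [CharP (AlgebraicClosure F) p] {n : ℕ} (hodd : Odd n) {s : AlgebraicClosure F}
    (hs : s ^ n = 1) : s ≠ -1 := by
  intro h4
  rw [h4, hodd.neg_one_pow] at hs
  have h6 : (2 : AlgebraicClosure F) = 0 := by
    have : (2 : AlgebraicClosure F) = 1 - (-1) := by norm_num
    rw [this, hs, sub_self]
  have h7 : ((2 : ℕ) : AlgebraicClosure F) = 0 := by exact_mod_cast h6
  have h8 := (CharP.cast_eq_zero_iff (AlgebraicClosure F) p 2).1 h7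
  exact h2 ((Nat.prime_dvd_prime_iff_eq hp.out Nat.prime_two).1 h8)

include hC C hT

/-- **Degree 13, the middle node.** -/
theorem mid_false (hp0 : p0.c ≠ 0) (h2 : p ≠ 2) (hk : Kd Fr) (h13 : Fintype.card ι = 13)
    (hi : (1 : Fin 3) ∉ JB M p f φ) (hd : dB M p f φ 1 ≤ 2) {σ' : SL(2, K) →* M.I}
    (N' : Nd (TB M) (XB M) 2 σ') (hσ' : σ' (ww * ww) = 1) : False := by
  have hWf : Finite (CoxeterMatrix.B 3).Group := TypeC.finite_W (CoxeterMatrix.B 3).toCoxeterSystem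
  have hne := hC.nonempty
  have hchar : CharP (AlgebraicClosure F) p := charP_of_injective_algebraMap (algebraMap F _).injective p
  have hodd : Odd (Fintype.card ι) := by rw [h13]; decide
  obtain ⟨hirr, hD⟩ := irr_B hC C hT
  have hV : Module.finrank (AlgebraicClosure F) (ι → AlgebraicClosure F) ≤ 13 := by
    rw [Module.finrank_fintype_fun_eq_card, h13]
  -- the nodes
  have h2J : (2 : Fin 3) ∈ JB M p f φ := by
    by_contra h2J
    obtain ⟨ε, hε, h3⟩ := bound_last hC C hT (i := 2) rfl h2J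
    rw [h13] at h3
    norm_num at h3
    exact last_odd hC C hT hp0 h2 hodd h2J (by omega) N' hσ'
  have h0J : (0 : Fin 3) ∈ JB M p f φ := by
    by_contra h0J
    exact B3.not01 C.rgd hirr hV h0J hi
  have hJ : ∀ j, j ∉ JB M p f φ ↔ j = 1 := by
    intro j
    constructor
    · intro hj
      fin_cases j
      · exact absurd h0J hj
      · rfl
      · exact absurd h2J hj
    · rintro rfl
      exact hi
  -- the homomorphisms
  have h01 : (0 : Fin 3) ≠ 1 := by decide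
  have h12 : (1 : Fin 3) ≠ 2 := by decide
  obtain ⟨σ₀', hσ₀', N₀'⟩ := nd_long' (Fr := Fr) hA.rg_le (i := 0) (j := 1) rfl h01
  obtain ⟨σ₁', hσ₁', N₁'⟩ := nd_long' (Fr := Fr) hA.rg_le (i := 1) (j := 2) rfl h12
  obtain ⟨σ₀, hσ₀, N₀⟩ := lift_nd C hp0 N₀'
  obtain ⟨σ₁, hσ₁, N₁⟩ := lift_nd C hp0 N₁'
  obtain ⟨σ₂, hσ₂, N₂⟩ := lift_nd C hp0 N'
  have hτ₁ : σ₁ (ww * ww) ∈ (TB M).comap f := by
    rw [ww_ww]
    exact N₁.tor (-1)
  -- the relation
  have hrel' : f (σ₀ (ww * ww)) * f (σ₁ (ww * ww)) * f (n₁ 0) = f (n₁ 0) * f (σ₁ (ww * ww)) := by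
    rw [hσ₀, hσ₁, C.hn]
    apply Subtype.ext
    have ha := (σ₀' (ww * ww)).2
    have hb := (σ₁' (ww * ww)).2
    rw [hσ₀'] at ha
    rw [hσ₁'] at hb
    have h5 := rel01 hA.V0 hk hA.iso hp0 h01 h12 ha hb (WittAll.nn_mem hA p0 0)
    change (σ₀' (ww * ww) : (ν → K) ≃ₗ[K] (ν → K)) * (σ₁' (ww * ww) : (ν → K) ≃ₗ[K] (ν → K)) * WittRGD.nn Fr p0 0 =
      WittRGD.nn Fr p0 0 * (σ₁' (ww * ww) : (ν → K) ≃ₗ[K] (ν → K))
    rw [hσ₀', hσ₁']
    exact h5
  obtain ⟨s, hs, hsv⟩ := scalar_of_ker hC C hT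
    (z := (n₁ 0 * σ₁ (ww * ww))⁻¹ * (σ₀ (ww * ww) * σ₁ (ww * ww) * n₁ 0)) (by
      rw [f.map_mul, f.map_inv, f.map_mul, f.map_mul, f.map_mul, hrel', inv_mul_cancel])
  obtain ⟨s₂, hs₂, hsv₂⟩ := scalar_of_ker hC C hT (z := σ₂ (ww * ww)) (by rw [hσ₂, hσ'])
  refine B3.node1_false C.rgd hirr hV hJ hD hd N₀ hτ₁ (ne_neg_one h2 hodd hs) (fun v => ?_) N₂
    (ne_neg_one h2 hodd hs₂) hsv₂
  have h6 : σ₀ (ww * ww) * σ₁ (ww * ww) * n₁ 0 = (n₁ 0 * σ₁ (ww * ww)) *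
      ((n₁ 0 * σ₁ (ww * ww))⁻¹ * (σ₀ (ww * ww) * σ₁ (ww * ww) * n₁ 0)) := by group
  rw [h6, rho_mul, hsv, map_smul]

end main

end Cfsg.Agent.H451.EP
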