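import Cfsg.Agent.H948.Ppd.SL

/-!
# `SL_2(E)` on a space of dimension at most two: the central involution acts as `-1` (helper451)

A submodule `L` of dimension at most two, stable under the two unipotent subgroups of `SL_2(E)`, with a vector
fixed by the upper one and moved by the lower one: then `w²` is `-1` on `L`.
-/

set_option autoImplicit false

namespace Cfsg.Agent.H451.EP

open Matrix Module Cfsg.Agent.H911.SLTwo Cfsg.Agent.H948.Ppd
open scoped MatrixGroups

universe u v w x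

section

variable {k : Type u} {V : Type v} {Y : Type w} {E : Type x} [Field k] [AddCommGroup V] [Module k V] [Group Y] [Field E]

theorem pow_eq_one_char {p : ℕ} [hp : Fact p.Prime] [CharP k p] {a : k} (h : a ^ p = 1) : a = 1 := by
  have h1 : (a - 1) ^ p = 0 := by
    rw [sub_pow_char, h, one_pow, sub_self]
  exact sub_eq_zero.1 (pow_eq_zero_iff hp.out.ne_zero |>.1 h1)

/-- iterating `T c = a c + b d`, `T d = d` -/
theorem iter_aux (T : V →ₗ[k] V) {c d : V} {a b : k} (hc : T c = a • c + b • d) (hd : T d = d) (n : ℕ) :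
    ∃ b' : k, (T ^ n) c = a ^ n • c + b' • d := by
  induction n with
  | zero => exact ⟨0, by rw [pow_zero, pow_zero, one_smul, zero_smul, add_zero]; rfl⟩
  | succ n ih =>
    obtain ⟨b', hb⟩ := ih
    refine ⟨a ^ n * b + b', ?_⟩
    rw [pow_succ', Module.End.mul_apply, hb, map_add, map_smul, map_smul, hc, hd, pow_succ]
    module

theorem sl2_neg {p : ℕ} [hp : Fact p.Prime] [CharP k p] [CharP E p]
    (ρ : Y →* (V →ₗ[k] V)) (σ : SL(2, E) →* Y) (L : Submodule k V) [FiniteDimensional k L] (hL : finrank k L ≤ 2)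
    (hU : ∀ t : E, ∀ v ∈ L, ρ (σ (U t)) v ∈ L) (hLo : ∀ t : E, ∀ v ∈ L, ρ (σ (Lo t)) v ∈ L)
    {c : V} (hc : c ∈ L) (hfix : ∀ t : E, ρ (σ (U t)) c = c) (hne : ρ (σ (Lo (-1))) c ≠ c) :
    ∀ v ∈ L, ρ (σ (ww * ww)) v = -v := by
  have hmul : ∀ (a b : SL(2, E)) (v : V), ρ (σ (a * b)) v = ρ (σ a) (ρ (σ b) v) := by
    intro a b v
    rw [map_mul, map_mul]
    rfl
  have hww : (ww : SL(2, E)) = U 1 * Lo (-1) * U 1 := by
    have h := hh_ww (1 : Eˣ)
    rw [hh_one, one_mul] at h
    simpa using h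
  have hwL : ∀ v ∈ L, ρ (σ ww) v ∈ L := by
    intro v hv
    rw [hww, hmul, hmul]
    exact hU _ _ (hLo _ _ (hU _ _ hv))
  have hone : ∀ v : V, ρ (σ 1) v = v := by
    intro v
    rw [map_one, map_one]
    rfl
  have hcc : ∀ (s t : E) (v : V), s + t = 0 → ρ (σ (U s)) (ρ (σ (U t)) v) = v := by
    intro s t v h
    rw [← hmul, U_mul, h, U_zero, hone]
  have hdd : ∀ (s t : E) (v : V), s + t = 0 → ρ (σ (Lo s)) (ρ (σ (Lo t)) v) = v := by
    intro s t v h
    rw [← hmul, Lo_mul, h, Lo_zero, hone]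
  set d : V := ρ (σ ww) c with hd
  have hdL : d ∈ L := hwL c hc
  have hdfix : ∀ t : E, ρ (σ (Lo t)) d = d := by
    intro t
    have h1 : Lo t * ww = ww * U (-t) := by
      have h := ww_U (-t)
      rw [neg_neg] at h
      rw [← h, inv_mul_cancel_right]
    rw [hd, ← hmul, h1, hmul, hfix]
  have hc0 : c ≠ 0 := by
    intro h
    rw [h, map_zero] at hne
    exact hne rfl
  -- `c`, `d` independent
  have hli : LinearIndependent k ![(⟨c, hc⟩ : L), ⟨d, hdL⟩] := by
    rw [LinearIndependent.pair_iff]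
    intro s t hst
    have hst' : s • c + t • d = 0 := congrArg Subtype.val hst
    have h1 : s • (ρ (σ (Lo (-1))) c - c) = 0 := by
      have h2 := congrArg (ρ (σ (Lo (-1)))) hst'
      rw [map_add, map_smul, map_smul, hdfix, map_zero] at h2
      rw [smul_sub, sub_eq_zero]
      have h3 : s • ρ (σ (Lo (-1))) c + t • d = s • c + t • d := h2.trans hst'.symm
      exact add_right_cancel h3
    have hs : s = 0 := by
      rcases smul_eq_zero.1 h1 with h | h
      · exact h
      · exact absurd (sub_eq_zero.1 h) hne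
    refine ⟨hs, ?_⟩
    rw [hs, zero_smul, zero_add] at hst'
    rcases smul_eq_zero.1 hst' with h | h
    · exact h
    · exfalso
      apply hc0
      have h4 : ρ (σ ww⁻¹) d = c := by
        rw [hd, ← hmul, inv_mul_cancel, hone]
      rw [← h4, h, map_zero]
  have hspan : ∀ v ∈ L, ∃ a b : k, v = a • c + b • d := by
    intro v hv
    have hfr : finrank k L = 2 := by
      refine le_antisymm hL ?_
      have h := hli.fintype_card_le_finrank
      rwa [Fintype.card_fin] at h
    have htop := hli.span_eq_top_of_card_eq_finrank' (by rw [Fintype.card_fin, hfr])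
    have hm : (⟨v, hv⟩ : L) ∈ Submodule.span k (Set.range ![(⟨c, hc⟩ : L), ⟨d, hdL⟩]) := by
      rw [htop]
      exact Submodule.mem_top
    rw [Matrix.range_cons, Matrix.range_cons, Matrix.range_empty, Set.union_empty, Set.singleton_union,
      Submodule.mem_span_pair] at hm
    obtain ⟨a, b, h⟩ := hm
    exact ⟨a, b, (congrArg Subtype.val h).symm⟩
  have huniq : ∀ a b a' b' : k, a • c + b • d = a' • c + b' • d → a = a' ∧ b = b' := by
    intro a b a' b' h
    have h1 := LinearIndependent.pair_iff.1 hli (a - a') (b - b') (by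
      apply Subtype.ext
      change (a - a') • c + (b - b') • d = 0
      rw [sub_smul, sub_smul]
      have h2 : a • c - a' • c + (b • d - b' • d) = (a • c + b • d) - (a' • c + b' • d) := by abel
      rw [h2, h, sub_self])
    exact ⟨sub_eq_zero.1 h1.1, sub_eq_zero.1 h1.2⟩
  have hE : (p : E) = 0 := CharP.cast_eq_zero E p
  have hpowL : ∀ n : ℕ, (Lo (-1 : E)) ^ n = Lo (-(n : E)) := by
    intro n
    induction n with
    | zero => rw [pow_zero, Nat.cast_zero, neg_zero, Lo_zero]
    | succ n ih => rw [pow_succ, ih, Lo_mul, Nat.cast_succ]; congr 1; ring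
  have hLp : (Lo (-1 : E)) ^ p = 1 := by
    rw [hpowL, hE, neg_zero, Lo_zero]
  have hUp : (U (-1 : E)) ^ p = 1 := by
    rw [U_pow, hE, zero_mul, U_zero]
  -- `Lo (-1) c = c + b d`
  obtain ⟨a, b, hab⟩ := hspan _ (hLo (-1) c hc)
  have ha : a = 1 := by
    obtain ⟨b', hb'⟩ := iter_aux (ρ (σ (Lo (-1)))) hab (hdfix (-1)) p
    have h1 : (ρ (σ (Lo (-1)))) ^ p = 1 := by
      rw [← map_pow, ← map_pow, hLp, map_one, map_one]
    rw [h1] at hb'
    have h2 : (1 : k) • c + (0 : k) • d = a ^ p • c + b' • d := by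
      rw [one_smul, zero_smul, add_zero]
      exact hb'
    exact pow_eq_one_char (p := p) (huniq _ _ _ _ h2).1.symm
  subst ha
  rw [one_smul] at hab
  -- `U (-1) d = c + b d`
  have hUd : ρ (σ (U (-1))) d = b • d + (1 : k) • c := by
    have h1 : d = c + b • ρ (σ (U 1)) d := by
      conv_lhs => rw [hd, hww, hmul, hmul, hfix, hab, map_add, map_smul, hfix]
    have h2 := congrArg (ρ (σ (U (-1)))) h1
    rw [map_add, map_smul, hfix, hcc _ _ _ (by ring)] at h2
    rw [h2, one_smul, add_comm]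
  have hb : b = 1 := by
    obtain ⟨b', hb'⟩ := iter_aux (ρ (σ (U (-1)))) hUd (hfix (-1)) p
    have h1 : (ρ (σ (U (-1)))) ^ p = 1 := by
      rw [← map_pow, ← map_pow, hUp, map_one, map_one]
    rw [h1] at hb'
    have h2 : (0 : k) • c + (1 : k) • d = b' • c + b ^ p • d := by
      rw [one_smul, zero_smul, zero_add, add_comm (b' • c)]
      exact hb'
    exact pow_eq_one_char (p := p) (huniq _ _ _ _ h2).2.symm
  subst hb
  rw [one_smul] at hab hUd
  have hUd1 : ρ (σ (U 1)) d = d - c := by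
    have h2 := congrArg (ρ (σ (U 1))) hUd
    rw [map_add, map_smul, hfix, hcc _ _ _ (by ring), one_smul] at h2
    rw [eq_sub_iff_add_eq]
    exact h2.symm
  have hwd : ρ (σ ww) d = -c := by
    rw [hww, hmul, hmul, hUd1, map_sub, hdfix, hab, sub_add_cancel_right, map_neg, hfix]
  intro v hv
  obtain ⟨s, t, rfl⟩ := hspan v hv
  rw [hmul, map_add, map_smul, map_smul, ← hd, hwd, map_add, map_smul, map_smul, map_neg, ← hd, hwd]
  module

/-- the same with any lower element -/
theorem sl2_neg' {p : ℕ} [hp : Fact p.Prime] [CharP k p] [CharP E p]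
    (ρ : Y →* (V →ₗ[k] V)) (σ : SL(2, E) →* Y) (L : Submodule k V) [FiniteDimensional k L] (hL : finrank k L ≤ 2)
    (hU : ∀ t : E, ∀ v ∈ L, ρ (σ (U t)) v ∈ L) (hLo : ∀ t : E, ∀ v ∈ L, ρ (σ (Lo t)) v ∈ L)
    {c : V} (hc : c ∈ L) (hfix : ∀ t : E, ρ (σ (U t)) c = c) {t₀ : E} (hne : ρ (σ (Lo t₀)) c ≠ c) :
    ∀ v ∈ L, ρ (σ (ww * ww)) v = -v := by
  refine sl2_neg ρ σ L hL hU hLo hc hfix fun h0 => hne ?_
  have hmul : ∀ (a b : SL(2, E)) (v : V), ρ (σ (a * b)) v = ρ (σ a) (ρ (σ b) v) := by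
    intro a b v
    rw [map_mul, map_mul]
    rfl
  have hww : (ww : SL(2, E)) = U 1 * Lo (-1) * U 1 := by
    have h := hh_ww (1 : Eˣ)
    rw [hh_one, one_mul] at h
    simpa using h
  have h1 : ρ (σ ww) c = c := by
    rw [hww, hmul, hmul, hfix, h0, hfix]
  have h2 : ρ (σ ww⁻¹) c = c := by
    conv_lhs => rw [← h1]
    rw [← hmul, inv_mul_cancel, map_one, map_one]
    rfl
  have h3 := ww_U (-t₀)
  rw [neg_neg] at h3
  rw [← h3, hmul, hmul, h2, hfix, h1]

end

end Cfsg.Agent.H451.EP
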